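import Cfsg.Agent.H50.QuadraticOffender
import Cfsg.Agent.H61.Basic
import Mathlib

/-!
Best offenders of exponent two on an abelian group given by an action `φ`, and their transfer to an
invariant subgroup.
-/

set_option autoImplicit false
set_option linter.style.haveILetI false

namespace Cfsg.Agent.H69.SFour

open Cfsg.Agent.H83 (fixedSub delta delta_apply mem_fixedSub delta_comm exists_fixed_mod)
open Cfsg.Agent.H61 (cj cj_cj cj_mono card_cj cj_eq_self mem_normalizer_of_cj)

universe u

section General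

variable {H V : Type*} [Group H] [CommGroup V]

/-- `A` is a best offender of exponent 2. -/
def Best (φ : H →* MulAut V) (A : Subgroup H) : Prop :=
  (∀ a ∈ A, a * a = 1) ∧ ∀ B ≤ A, Nat.card B * Nat.card (fixedSub φ (B : Set H)) ≤
    Nat.card A * Nat.card (fixedSub φ (A : Set H))

/-- The best offenders in `R` generate `jBest φ R`. -/
def jBest (φ : H →* MulAut V) (R : Subgroup H) : Subgroup H :=
  sSup {A | Best φ A ∧ A ≤ R}

/-- The elements fixing a subgroup of the module pointwise. -/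
def stabSub (φ : H →* MulAut V) (W : Subgroup V) : Subgroup H where
  carrier := {h | ∀ w ∈ W, φ h w = w}
  one_mem' := fun w _ => by simp
  mul_mem' := fun {a b} ha hb w hw => by rw [map_mul, MulAut.mul_apply, hb w hw, ha w hw]
  inv_mem' := fun {a} ha w hw => by
    conv_lhs => rw [← ha w hw]
    rw [map_inv, MulAut.inv_apply_self]

theorem mem_stabSub {φ : H →* MulAut V} {W : Subgroup V} {h : H} :
    h ∈ stabSub φ W ↔ ∀ w ∈ W, φ h w = w := Iff.rfl

theorem Best.comm {φ : H →* MulAut V} {A : Subgroup H} (hA : Best φ A) :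
    ∀ a ∈ A, ∀ b ∈ A, a * b = b * a := by
  intro a ha b hb
  have h1 := inv_eq_of_mul_eq_one_right (hA.1 _ (mul_mem ha hb))
  rw [mul_inv_rev, inv_eq_of_mul_eq_one_right (hA.1 a ha), inv_eq_of_mul_eq_one_right (hA.1 b hb)] at h1
  exact h1.symm

theorem Best.isPGroup {φ : H →* MulAut V} {A : Subgroup H} (hA : Best φ A) : IsPGroup 2 A :=
  fun a => ⟨1, Subtype.ext (by rw [SubmonoidClass.coe_pow, pow_one, sq]; exact hA.1 a a.2)⟩

theorem fixedSub_cj (φ : H →* MulAut V) (A : Subgroup H) (x : H) :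
    fixedSub φ (cj x A : Set H) = (fixedSub φ (A : Set H)).map (φ x).toMonoidHom :=
  H50.QuadraticOffender.fixedSub_cj φ A x

theorem card_fixedSub_cj (φ : H →* MulAut V) (A : Subgroup H) (x : H) :
    Nat.card (fixedSub φ (cj x A : Set H)) = Nat.card (fixedSub φ (A : Set H)) := by
  rw [fixedSub_cj]
  exact Subgroup.card_map_of_injective (φ x).injective

theorem Best.cj {φ : H →* MulAut V} {A : Subgroup H} (hA : Best φ A) (x : H) :
    Best φ (H61.cj x A) := by
  refine ⟨fun a ha => ?_, fun B hB => ?_⟩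
  · obtain ⟨b, hb, rfl⟩ := ha
    rw [← map_mul, hA.1 b hb, map_one]
  · have hBA : H61.cj x⁻¹ B ≤ A := by
      have := cj_mono x⁻¹ hB
      rwa [cj_cj, inv_mul_cancel, H61.cj_one] at this
    have h := hA.2 _ hBA
    rwa [card_fixedSub_cj, card_cj, ← card_fixedSub_cj φ A x, ← card_cj x A] at h

theorem jBest_le (φ : H →* MulAut V) (R : Subgroup H) : jBest φ R ≤ R := sSup_le fun _ hA => hA.2

theorem le_jBest {φ : H →* MulAut V} {A R : Subgroup H} (hA : Best φ A) (h : A ≤ R) :
    A ≤ jBest φ R :=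
  le_sSup ⟨hA, h⟩

theorem jBest_mono (φ : H →* MulAut V) {R R' : Subgroup H} (h : R ≤ R') :
    jBest φ R ≤ jBest φ R' :=
  sSup_le fun _ hA => le_jBest hA.1 (hA.2.trans h)

theorem jBest_eq_of_le {φ : H →* MulAut V} {R R' : Subgroup H} (h : jBest φ R ≤ R') (h' : R' ≤ R) :
    jBest φ R' = jBest φ R :=
  le_antisymm (jBest_mono φ h') (sSup_le fun _ hA => le_jBest hA.1 ((le_jBest hA.1 hA.2).trans h))

theorem jBest_idem (φ : H →* MulAut V) (R : Subgroup H) : jBest φ (jBest φ R) = jBest φ R :=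
  jBest_eq_of_le le_rfl (jBest_le φ R)

theorem jBest_self {φ : H →* MulAut V} {A : Subgroup H} (hA : Best φ A) : jBest φ A = A :=
  le_antisymm (jBest_le φ A) (le_jBest hA le_rfl)

theorem jBest_cj (φ : H →* MulAut V) (R : Subgroup H) (x : H) :
    cj x (jBest φ R) = jBest φ (cj x R) := by
  have key : ∀ (y : H) (Q : Subgroup H), cj y (jBest φ Q) ≤ jBest φ (cj y Q) := fun y Q => by
    rw [cj, Subgroup.map_le_iff_le_comap]
    exact sSup_le fun A hA => Subgroup.map_le_iff_le_comap.1 (le_jBest (hA.1.cj y) (cj_mono y hA.2))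
  refine le_antisymm (key x R) ?_
  have := cj_mono x (key x⁻¹ (cj x R))
  rwa [cj_cj, cj_cj, mul_inv_cancel, inv_mul_cancel, H61.cj_one, H61.cj_one] at this

theorem normalizer_le_jBest (φ : H →* MulAut V) (R : Subgroup H) :
    Subgroup.normalizer (R : Set H) ≤ Subgroup.normalizer (jBest φ R : Set H) := fun n hn =>
  mem_normalizer_of_cj (by rw [jBest_cj, cj_eq_self hn])

theorem stabSub_antitone (φ : H →* MulAut V) {W W' : Subgroup V} (h : W ≤ W') :
    stabSub φ W' ≤ stabSub φ W := fun _ hh w hw => hh w (h hw)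

theorem le_stabSub_fixed (φ : H →* MulAut V) (T : Subgroup H) :
    T ≤ stabSub φ (fixedSub φ (T : Set H)) := fun _ ht _ hw => hw _ ht

/-- A minimal nontrivial best offender acts quadratically. -/
theorem quadratic_of_minimal [Finite H] [Finite V] (φ : H →* MulAut V) (hV : ∀ v : V, v * v = 1)
    {A : Subgroup H} (hA : Best φ A) (hmin : ∀ D ≤ A, Best φ D → D ≠ ⊥ → D = A) :
    ∀ a ∈ A, ∀ v : V, delta φ a v ∈ fixedSub φ (A : Set H) := by
  classical
  set W := fixedSub φ (A : Set H) with hW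
  set Q : Subgroup V := ⨅ c : A, W.comap (delta φ (c : H)) with hQ
  have hmemQ : ∀ v, v ∈ Q ↔ ∀ c ∈ A, delta φ c v ∈ W := by
    intro v
    simp [hQ, Subgroup.mem_iInf]
  suffices hQtop : Q = ⊤ by
    intro a ha v
    exact (hmemQ v).1 (hQtop ▸ Subgroup.mem_top v) a ha
  by_contra hne
  have hQinv : ∀ b ∈ A, ∀ w ∈ Q, φ b w ∈ Q := by
    intro b hb w hw
    rw [hmemQ] at hw ⊢
    intro c hc
    rw [← delta_comm φ (hA.comm b hb c hc)]
    rw [(hw c hc) b hb]
    exact hw c hc
  obtain ⟨u, -, huQ, hu⟩ := exists_fixed_mod φ hV (A : Set H) hA.1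
    (fun b hb c hc => hA.comm b hb c hc) ⊤ Q (fun _ _ _ _ => Subgroup.mem_top _) hQinv
    (fun h => hne (top_le_iff.1 h))
  set L := Subgroup.closure {x : V | ∃ c ∈ A, x = delta φ c u} with hL
  set D := A ⊓ stabSub φ L with hD
  have hLQ : L ≤ Q := (Subgroup.closure_le _).2 (by rintro _ ⟨c, hc, rfl⟩; exact hu c hc)
  have hWQ : W ≤ Q := fun w hw => (hmemQ w).2 fun c hc => by
    rw [delta_apply, hw c hc, div_self']; exact W.one_mem
  have hsymm : ∀ a ∈ A, ∀ c ∈ A, delta φ a (delta φ c u) = delta φ c (delta φ a u) := by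
    intro a ha c hc
    rw [delta_apply φ a, delta_comm φ (hA.comm a ha c hc), ← map_div, ← delta_apply φ a]
  let θ : A →* V ⧸ W := MonoidHom.mk' (fun a => ((delta φ a u : V) : V ⧸ W)) fun a b => by
    show ((delta φ ((a : H) * b) u : V) : V ⧸ W) = _
    rw [H50.QuadraticOffender.delta_mul, mul_comm (((delta φ (a : H)) u : V) : V ⧸ W),
      ← QuotientGroup.mk_mul, QuotientGroup.eq_iff_div_mem, mul_div_mul_right_eq_div, ← delta_apply]
    exact (hmemQ _).1 (hu b b.2) a a.2
  have hker : θ.ker.map A.subtype ≤ D := by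
    rintro _ ⟨a, ha, rfl⟩
    refine ⟨a.2, fun l hl => ?_⟩
    have ha' : delta φ (a : H) u ∈ W := (QuotientGroup.eq_one_iff _).1 ha
    have hle : L ≤ fixedSub φ ({(a : H)} : Set H) := (Subgroup.closure_le _).2 (by
      rintro _ ⟨c, hc, rfl⟩ s hs
      rw [Set.mem_singleton_iff] at hs
      subst hs
      refine div_eq_one.1 ?_
      rw [← delta_apply, hsymm _ a.2 c hc, delta_apply, ha' c hc, div_self'])
    exact hle hl _ rfl
  have hrange : θ.range ≤ (L ⊔ W).map (QuotientGroup.mk' W) := by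
    rintro _ ⟨a, rfl⟩
    exact ⟨_, Subgroup.mem_sup_left (Subgroup.subset_closure ⟨a, a.2, rfl⟩), rfl⟩
  have hLW : Nat.card ((L ⊔ W).map (QuotientGroup.mk' W)) * Nat.card W =
      Nat.card (L ⊔ W : Subgroup V) := by
    have e : (L ⊔ W).map (QuotientGroup.mk' W) =
        ((QuotientGroup.mk' W).comp (L ⊔ W).subtype).range := by
      rw [MonoidHom.range_comp, Subgroup.range_subtype]
    have e' : ((QuotientGroup.mk' W).comp (L ⊔ W).subtype).ker = W.subgroupOf (L ⊔ W) := by
      rw [← MonoidHom.comap_ker, QuotientGroup.ker_mk']; rfl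
    rw [e, ← Subgroup.index_ker, e', mul_comm]
    have h2 := Subgroup.relIndex_mul_relIndex (⊥ : Subgroup V) W (L ⊔ W) bot_le le_sup_right
    rw [Subgroup.relIndex_bot_left, Subgroup.relIndex_bot_left] at h2
    exact h2
  have hAW : Nat.card A * Nat.card W ≤ Nat.card D * Nat.card (L ⊔ W : Subgroup V) := by
    have h1 : Nat.card θ.range * Nat.card θ.ker = Nat.card A := by
      rw [← Subgroup.index_ker, θ.ker.index_mul_card]
    have h2 : Nat.card θ.ker ≤ Nat.card D := by
      rw [← Subgroup.card_map_of_injective A.subtype_injective]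
      exact Subgroup.card_le_of_le hker
    have h3 := Subgroup.card_le_of_le hrange
    rw [← h1, ← hLW]
    calc Nat.card θ.range * Nat.card θ.ker * Nat.card W
        ≤ Nat.card ((L ⊔ W).map (QuotientGroup.mk' W)) * Nat.card D * Nat.card W :=
          Nat.mul_le_mul_right _ (Nat.mul_le_mul h3 h2)
      _ = _ := by ring
  have hfixD : L ⊔ W ≤ fixedSub φ (D : Set H) :=
    sup_le (fun l hl d hd => hd.2 l hl) fun w hw d hd => hw d hd.1
  have hDbest : Best φ D := ⟨fun a ha => hA.1 a ha.1, fun B hB => ((hA.2 B (hB.trans inf_le_left)).trans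
    hAW).trans (Nat.mul_le_mul_left _ (Subgroup.card_le_of_le hfixD))⟩
  have hD0 : D ≠ ⊥ := by
    intro h0
    have h1 := (hA.2 ⊥ bot_le).trans hAW
    have htop : fixedSub φ ((⊥ : Subgroup H) : Set H) = ⊤ := top_unique fun v _ s hs => by
      rw [SetLike.mem_coe, Subgroup.mem_bot] at hs
      rw [hs, map_one, MulAut.one_apply]
    rw [htop, h0, Subgroup.card_bot, one_mul, one_mul, Subgroup.card_top] at h1
    exact hne (Subgroup.eq_top_of_le_card Q (h1.trans (Subgroup.card_le_of_le (sup_le hLQ hWQ))))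
  have hDA := hmin D inf_le_left hDbest hD0
  refine huQ ((hmemQ u).2 fun c hc a ha => ?_)
  have : a ∈ D := hDA.symm ▸ ha
  exact this.2 _ (Subgroup.subset_closure ⟨c, hc, rfl⟩)

/-- Orders of images. -/
theorem card_map_mul_card_inf_ker {K : Type*} [Group K] (f : H →* K) (X : Subgroup H) :
    Nat.card (X.map f) * Nat.card (X ⊓ f.ker : Subgroup H) = Nat.card X := by
  have h1 : (f.comp X.subtype).range = X.map f := by
    rw [MonoidHom.range_comp, Subgroup.range_subtype]
  have h2 : (f.comp X.subtype).ker = f.ker.subgroupOf X := by rw [← MonoidHom.comap_ker]; rfl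
  have h3 := (f.comp X.subtype).ker.index_mul_card
  rw [Subgroup.index_ker, h1, h2] at h3
  rw [← h3]
  congr 1
  rw [← Subgroup.card_map_of_injective X.subtype_injective, Subgroup.subgroupOf_map_subtype, inf_comm]

/-- The preimage of the normalizer of an image of `2`-groups is the kernel and a normalizer. -/
theorem comap_normalizer_le {P Q : Type*} [Group P] [Group Q] [Finite P] (f : P →* Q) (S : Sylow 2 P)
    (J : Subgroup Q) (hJS : J ≤ (S : Subgroup P).map f)
    (hSJ : (S : Subgroup P).map f ≤ Subgroup.normalizer (J : Set Q)) :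
    (Subgroup.normalizer (J : Set Q)).comap f ≤
      f.ker ⊔ Subgroup.normalizer (((S : Subgroup P) ⊓ J.comap f : Subgroup P) : Set P) := by
  haveI : Fact (Nat.Prime 2) := ⟨Nat.prime_two⟩
  set D := J.comap f with hD
  set R : Subgroup P := (S : Subgroup P) ⊓ D with hR
  have hDR : D ≤ f.ker ⊔ R := by
    intro d hd
    obtain ⟨s, hs, e⟩ := hJS hd
    have hsR : s ∈ R := ⟨hs, show f s ∈ J by rw [e]; exact hd⟩
    rw [show d = d * s⁻¹ * s by group]
    exact Subgroup.mul_mem_sup (by rw [MonoidHom.mem_ker, map_mul, map_inv, e, mul_inv_cancel]) hsR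
  have hN : ∀ n ∈ (Subgroup.normalizer (J : Set Q)).comap f, ∀ d ∈ D, n * d * n⁻¹ ∈ D := by
    intro n hn d hd
    show f (n * d * n⁻¹) ∈ J
    rw [map_mul, map_mul, map_inv]
    exact (Subgroup.mem_normalizer_iff.1 hn (f d)).1 hd
  have hR2 : IsPGroup 2 R := S.2.to_le inf_le_left
  have hidx : ¬ 2 ∣ R.relIndex D := by
    have hDn : D ≤ (Subgroup.normalizer (J : Set Q)).comap f :=
      Subgroup.comap_mono Subgroup.le_normalizer
    have hSn : (S : Subgroup P) ≤ (Subgroup.normalizer (J : Set Q)).comap f :=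
      Subgroup.map_le_iff_le_comap.1 hSJ
    obtain ⟨T, hT, hle⟩ := H23.exists_isSylowIn_ge (p := 2) (inf_le_right : R ≤ D) hR2
    obtain ⟨m, hm, hmT⟩ := H61.exists_cj_le
      (H61.sylowIn_of_le S hSn) (hT.1.trans hDn) hT.2.1
    have h1 : cj m T ≤ R := le_inf hmT (by
      rintro _ ⟨t, ht, rfl⟩
      exact hN m hm t (hT.1 ht))
    have e : R = T := Subgroup.eq_of_le_of_card_ge hle
      ((card_cj m T).ge.trans (Subgroup.card_le_of_le h1))
    rw [e]; exact hT.2.2
  intro n hn
  obtain ⟨d, hd, hdR⟩ := H61.exists_cj_le (⟨inf_le_right, hR2, hidx⟩ : H23.IsSylowIn 2 R D)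
    (L := cj n R) (by rintro _ ⟨r, hr, rfl⟩; exact hN n hn r hr.2) (hR2.map _)
  rw [cj_cj] at hdR
  have hdn : d * n ∈ Subgroup.normalizer (R : Set P) :=
    mem_normalizer_of_cj (H61.cj_eq_of_le hdR)
  rw [show n = d⁻¹ * (d * n) by group]
  refine Subgroup.mul_mem _ (inv_mem ((hDR.trans (sup_le_sup_left Subgroup.le_normalizer _)) hd)) ?_
  exact Subgroup.mem_sup_right hdn

end General

/-- The generation statement: `H` is generated by the stabilizer of the fixed points of `T` and
the normalizer of `jBest φ T`. -/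
def genBy {H V : Type*} [Group H] [CommGroup V] (φ : H →* MulAut V) (T : Subgroup H) : Subgroup H :=
  stabSub φ (fixedSub φ (T : Set H)) ⊔ Subgroup.normalizer (jBest φ T : Set H)

/-- The action on an invariant subgroup. -/
def restrictHom {H V : Type*} [Group H] [CommGroup V] (φ : H →* MulAut V) (P : Subgroup H)
    (U : Subgroup V) (hU : ∀ p ∈ P, ∀ u ∈ U, φ p u ∈ U) : P →* MulAut U where
  toFun p :=
    { toFun := fun u => ⟨φ p u, hU p p.2 u u.2⟩
      invFun := fun u => ⟨φ (p⁻¹ : P) u, hU _ (p⁻¹).2 u u.2⟩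
      left_inv := fun u => Subtype.ext (by simp)
      right_inv := fun u => Subtype.ext (by simp)
      map_mul' := fun u v => Subtype.ext (map_mul (φ p) (u : V) v) }
  map_one' := by ext u; simp
  map_mul' p q := by ext u; simp

theorem restrictHom_apply {H V : Type*} [Group H] [CommGroup V] (φ : H →* MulAut V) (P : Subgroup H)
    (U : Subgroup V) (hU : ∀ p ∈ P, ∀ u ∈ U, φ p u ∈ U) (p : P) (u : U) :
    ((restrictHom φ P U hU p u : U) : V) = φ p u := rfl

section Transfer

variable {H V : Type u} [Group H] [CommGroup V] [Finite H] [Finite V]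

/-- The image of a best offender on an invariant subgroup is a best offender. -/
theorem best_image (φ : H →* MulAut V) (P : Subgroup H) (U : Subgroup V)
    (hU : ∀ p ∈ P, ∀ u ∈ U, φ p u ∈ U) {A : Subgroup H} (hA : Best φ A) (hAP : A ≤ P) :
    Best (restrictHom φ P U hU).range.subtype
      ((A.subgroupOf P).map (restrictHom φ P U hU).rangeRestrict) := by
  set ψ := restrictHom φ P U hU with hψ
  set f := ψ.rangeRestrict with hf
  set A1 := A.subgroupOf P with hA1
  refine ⟨?_, fun B hB => ?_⟩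
  · rintro _ ⟨a, ha, rfl⟩
    rw [← map_mul]
    have : a * a = 1 := Subtype.ext (hA.1 a ha)
    rw [this, map_one]
  set B1 := A1 ⊓ B.comap f with hB1
  have hBB : B1.map f = B := by
    refine le_antisymm ((Subgroup.map_mono inf_le_right).trans (Subgroup.map_comap_le _ _)) ?_
    intro y hy
    obtain ⟨a, ha, rfl⟩ := hB hy
    exact ⟨a, ⟨ha, hy⟩, rfl⟩
  have hkeq : B1 ⊓ f.ker = A1 ⊓ f.ker := by
    refine le_antisymm (inf_le_inf_right _ inf_le_left) (le_inf (fun a ha => ⟨ha.1, ?_⟩) inf_le_right)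
    show f a ∈ B
    rw [MonoidHom.mem_ker.1 ha.2]; exact one_mem _
  set k := Nat.card (A1 ⊓ f.ker : Subgroup P) with hk
  have hcB : Nat.card (B1.map P.subtype) = Nat.card B * k := by
    rw [Subgroup.card_map_of_injective P.subtype_injective, ← card_map_mul_card_inf_ker f B1, hBB,
      hkeq]
  have hA1A : A1.map P.subtype = A := Subgroup.map_subgroupOf_eq_of_le hAP
  have hcA : Nat.card A = Nat.card (A1.map f) * k := by
    conv_lhs => rw [← hA1A, Subgroup.card_map_of_injective P.subtype_injective,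
      ← card_map_mul_card_inf_ker f A1]
  have hfix : ∀ X : Subgroup P, Nat.card (fixedSub ψ.range.subtype ((X.map f : Subgroup ψ.range) : Set ψ.range)) =
      Nat.card (U ⊓ fixedSub φ ((X.map P.subtype : Subgroup H) : Set H) : Subgroup V) := by
    intro X
    rw [← Subgroup.card_map_of_injective U.subtype_injective]
    congr 2
    ext v
    constructor
    · rintro ⟨u, hu, rfl⟩
      refine ⟨u.2, ?_⟩
      rintro _ ⟨x, hx, rfl⟩
      exact congrArg Subtype.val (hu (f x) ⟨x, hx, rfl⟩)
    · rintro ⟨hv, hfix⟩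
      refine ⟨⟨v, hv⟩, ?_, rfl⟩
      rintro _ ⟨x, hx, rfl⟩
      exact Subtype.ext (hfix _ ⟨x, hx, rfl⟩)
  have h1 := hfix B1
  have h2 := hfix A1
  rw [hBB] at h1
  rw [hA1A] at h2
  rw [h1, h2]
  set WA := fixedSub φ (A : Set H) with hWA
  set WB := fixedSub φ ((B1.map P.subtype : Subgroup H) : Set H) with hWB
  have hBA : B1.map P.subtype ≤ A := hA1A ▸ Subgroup.map_mono inf_le_left
  have hle : WA ≤ WB := fun v hv b hb => hv b (hBA hb)
  have hb := hA.2 _ hBA
  rw [hcB, hcA] at hb
  have hprod := H50.QuadraticOffender.card_sup_mul_card_inf WA (U ⊓ WB)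
  have hinf : WA ⊓ (U ⊓ WB) = U ⊓ WA := by
    rw [inf_left_comm, inf_eq_left.2 hle]
  rw [hinf] at hprod
  have hsup : Nat.card (WA ⊔ (U ⊓ WB) : Subgroup V) ≤ Nat.card WB :=
    Subgroup.card_le_of_le (sup_le hle inf_le_right)
  have hineq : Nat.card WA * Nat.card (U ⊓ WB : Subgroup V) ≤
      Nat.card WB * Nat.card (U ⊓ WA : Subgroup V) := hprod ▸ Nat.mul_le_mul_right _ hsup
  have hfin : (Nat.card B * Nat.card (U ⊓ WB : Subgroup V)) * (k * Nat.card WA * Nat.card WB) ≤
      (Nat.card (A1.map f) * Nat.card (U ⊓ WA : Subgroup V)) * (k * Nat.card WA * Nat.card WB) := by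
    calc _ = (Nat.card B * k * Nat.card WB) * (Nat.card WA * Nat.card (U ⊓ WB : Subgroup V)) := by
          ring
      _ ≤ (Nat.card (A1.map f) * k * Nat.card WA) * (Nat.card WB * Nat.card (U ⊓ WA : Subgroup V)) :=
          Nat.mul_le_mul hb hineq
      _ = _ := by ring
  exact Nat.le_of_mul_le_mul_right hfin
    (Nat.mul_pos (Nat.mul_pos Nat.card_pos Nat.card_pos) Nat.card_pos)

/-- Generation on an invariant subgroup pulls back. -/
theorem transfer (φ : H →* MulAut V) (P : Subgroup H) (U : Subgroup V)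
    (hU : ∀ p ∈ P, ∀ u ∈ U, φ p u ∈ U) (T : Subgroup H) (hT : H23.IsSylowIn 2 T P)
    (hgen : ∀ S : Sylow 2 (restrictHom φ P U hU).range,
      genBy (restrictHom φ P U hU).range.subtype (S : Subgroup (restrictHom φ P U hU).range) = ⊤) :
    P ≤ stabSub φ (U ⊓ fixedSub φ (T : Set H)) ⊔
      (P ⊓ Subgroup.normalizer (jBest φ T : Set H)) := by
  haveI : Fact (Nat.Prime 2) := ⟨Nat.prime_two⟩
  set ψ := restrictHom φ P U hU with hψ
  set f := ψ.rangeRestrict with hf
  have hfs : Function.Surjective f := ψ.rangeRestrict_surjective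
  have hp : IsPGroup 2 (T.subgroupOf P) := hT.2.1.of_equiv (Subgroup.subgroupOfEquivOfLe hT.1).symm
  let S : Sylow 2 P := hp.toSylow hT.2.2
  have hS : (S : Subgroup P).map P.subtype = T := Subgroup.map_subgroupOf_eq_of_le hT.1
  set T' := (S : Subgroup P).map f with hT'
  have h := hgen (S.mapSurjective hfs)
  rw [show ((S.mapSurjective hfs : Sylow 2 ψ.range) : Subgroup ψ.range) = T' from rfl, genBy] at h
  set target := stabSub φ (U ⊓ fixedSub φ (T : Set H)) ⊔
    (P ⊓ Subgroup.normalizer (jBest φ T : Set H)) with htarget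
  set J' := jBest ψ.range.subtype T' with hJ'
  have hstab : ∀ p : P, f p ∈ stabSub ψ.range.subtype (fixedSub ψ.range.subtype (T' : Set ψ.range)) →
      (p : H) ∈ target := by
    intro p hp
    refine Subgroup.mem_sup_left fun u hu => ?_
    have hu' : (⟨u, hu.1⟩ : U) ∈ fixedSub ψ.range.subtype (T' : Set ψ.range) := by
      rintro _ ⟨t, ht, rfl⟩
      exact Subtype.ext (hu.2 _ (hS ▸ Subgroup.mem_map_of_mem P.subtype ht))
    exact congrArg Subtype.val (hp _ hu')
  have hnorm : ∀ p : P, f p ∈ Subgroup.normalizer (J' : Set ψ.range) → (p : H) ∈ target := by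
    intro p hp
    set R := (S : Subgroup P) ⊓ J'.comap f with hR
    have hmem := comap_normalizer_le f S J' (jBest_le _ _)
      (Subgroup.le_normalizer.trans (normalizer_le_jBest _ _)) (Subgroup.mem_comap.2 hp)
    have hle : f.ker ⊔ Subgroup.normalizer (R : Set P) ≤ target.comap P.subtype := by
      refine sup_le (fun q hq => ?_) fun q hq => ?_
      · refine hstab q ?_
        rw [MonoidHom.mem_ker.1 hq]
        exact one_mem _
      · refine Subgroup.mem_sup_right ⟨q.2, ?_⟩
        have hRT : R.map P.subtype ≤ T := hS ▸ Subgroup.map_mono inf_le_left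
        have hJR : jBest φ T ≤ R.map P.subtype := sSup_le fun A hA => by
          have hAP : A ≤ P := hA.2.trans hT.1
          rw [← Subgroup.map_subgroupOf_eq_of_le hAP]
          refine Subgroup.map_mono (le_inf ?_ (Subgroup.map_le_iff_le_comap.1 ?_))
          · exact Subgroup.comap_mono hA.2
          · exact le_jBest (best_image φ P U hU hA.1 hAP) (Subgroup.map_mono (Subgroup.comap_mono hA.2))
        have hqR : (q : H) ∈ Subgroup.normalizer ((R.map P.subtype : Subgroup H) : Set H) := by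
          refine mem_normalizer_of_cj ?_
          conv_rhs => rw [← cj_eq_self hq]
          rw [cj, cj, Subgroup.map_map, Subgroup.map_map]
          rfl
        rw [← jBest_eq_of_le hJR hRT]
        exact normalizer_le_jBest _ _ hqR
    exact hle hmem
  intro x hx
  have hfx : f ⟨x, hx⟩ ∈ (⊤ : Subgroup ψ.range) := Subgroup.mem_top _
  rw [← h, ← Subgroup.mem_comap, ← Subgroup.comap_sup_eq f _ _ hfs] at hfx
  exact (sup_le (fun p hp => hstab p hp) fun p hp => hnorm p hp :
    _ ≤ target.comap P.subtype) hfx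

end Transfer

end Cfsg.Agent.H69.SFour
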