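import Cfsg.Agent.H69.SFour.Generation
import Cfsg.Agent.H34.Conj
import Cfsg.Agent.H34.Thompson
import Cfsg.Agent.H19.Cores
import Cfsg.Agent.H23.Thompson
import Mathlib

/-!
A group `X` with `C(O₂(X)) ≤ O₂(X)` and no section `S₄` is generated by the normalizers of `Z(S)`
and of the elementary Thompson subgroup of a Sylow 2-subgroup `S`.
-/

set_option autoImplicit false
set_option linter.style.haveILetI false

namespace Cfsg.Agent.H69.SFour

open Subgroup
open Cfsg.Agent.H83 (fixedSub)
open Cfsg.Agent.H61 (cj cj_eq_self mem_normalizer_of_cj)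
open scoped IsMulCommutative

universe u

variable {X : Type u} [Group X] [Finite X]

/-- If the involutions of `Z(S)` are central, so is `Z(S)`, when `Z(S)` lies in a normal abelian
subgroup inside `S`. -/
theorem center_central (S : Sylow 2 X) (Y : Subgroup X) [Y.Normal] [IsMulCommutative Y]
    (hYS : Y ≤ (S : Subgroup X))
    (hZY : (S : Subgroup X) ⊓ centralizer ((S : Subgroup X) : Set X) ≤ Y)
    (hinv : ∀ t ∈ (S : Subgroup X) ⊓ centralizer ((S : Subgroup X) : Set X), t * t = 1 →
      ∀ x : X, x * t = t * x) :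
    ∀ z ∈ (S : Subgroup X) ⊓ centralizer ((S : Subgroup X) : Set X), ∀ x : X, x * z = z * x := by
  classical
  haveI : Fact (Nat.Prime 2) := ⟨Nat.prime_two⟩
  set Z := (S : Subgroup X) ⊓ centralizer ((S : Subgroup X) : Set X) with hZ
  intro z
  induction hd : orderOf z using Nat.strong_induction_on generalizing z with
  | _ d IH =>
  subst hd
  intro hz
  by_cases hz2 : z * z = 1
  · exact hinv z hz hz2
  have hzord : orderOf (z * z) < orderOf z := by
    obtain ⟨k, hk⟩ := IsPGroup.iff_orderOf.1 S.2 ⟨z, hz.1⟩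
    rw [← Subgroup.orderOf_coe] at hk
    change orderOf z = 2 ^ k at hk
    rw [← pow_two, orderOf_pow' z two_ne_zero, hk]
    rcases k with _ | k
    · exfalso
      refine hz2 ?_
      have hz1 : z = 1 := orderOf_eq_one_iff.1 (by simpa using hk)
      rw [hz1, mul_one]
    · have h2 : Nat.gcd (2 ^ (k + 1)) 2 = 2 := Nat.gcd_eq_right (dvd_pow_self 2 (Nat.succ_ne_zero k))
      rw [h2]
      exact Nat.div_lt_self (Nat.pow_pos (by norm_num)) one_lt_two
  have hsq : ∀ x : X, x * (z * z) = z * z * x := IH _ hzord (z * z) rfl (mul_mem hz hz)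
  let zY : Y := ⟨z, hZY hz⟩
  let c : X ⧸ (S : Subgroup X) → Y := fun q => q.liftOn' (fun g => MulAut.conjNormal g zY) (by
    intro a b hab
    rw [QuotientGroup.leftRel_apply] at hab
    have hfix : MulAut.conjNormal (a⁻¹ * b) zY = zY := by
      apply Subtype.ext
      rw [MulAut.conjNormal_apply]
      show a⁻¹ * b * z * (a⁻¹ * b)⁻¹ = z
      rw [Subgroup.mem_centralizer_iff.1 hz.2 _ hab, mul_inv_cancel_right]
    show MulAut.conjNormal a zY = MulAut.conjNormal b zY
    conv_rhs => rw [show b = a * (a⁻¹ * b) by group, map_mul, MulAut.mul_apply, hfix])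
  haveI := Fintype.ofFinite (X ⧸ (S : Subgroup X))
  set N : Y := ∏ q, c q with hN
  have hNfix : ∀ x : X, MulAut.conjNormal x N = N := by
    intro x
    rw [hN, map_prod]
    refine Fintype.prod_bijective (fun q : X ⧸ (S : Subgroup X) => x • q) (MulAction.bijective x) _ _
      fun q => ?_
    obtain ⟨g, rfl⟩ := QuotientGroup.mk_surjective q
    show MulAut.conjNormal x (MulAut.conjNormal g zY) = MulAut.conjNormal (x * g) zY
    rw [map_mul, MulAut.mul_apply]
  have hNc : ∀ x : X, x * (N : X) = N * x := fun x => by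
    have h1 := congrArg Subtype.val (hNfix x)
    rw [MulAut.conjNormal_apply] at h1
    exact mul_inv_eq_iff_eq_mul.1 h1
  set n := Fintype.card (X ⧸ (S : Subgroup X)) with hn
  have hodd : ¬ 2 ∣ n := by
    rw [hn, ← Nat.card_eq_fintype_card]
    exact S.not_dvd_index
  set t : Y := zY ^ n * N⁻¹ with ht
  have hsqY : ∀ g : X, MulAut.conjNormal g (zY * zY) = zY * zY := fun g => Subtype.ext (by
    rw [MulAut.conjNormal_apply]
    show g * (z * z) * g⁻¹ = z * z
    rw [hsq g, mul_inv_cancel_right])
  have ht2 : t * t = 1 := by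
    rw [ht, mul_mul_mul_comm, ← mul_pow, ← mul_inv, hN, ← Finset.prod_mul_distrib]
    have : ∀ q, c q * c q = zY * zY := fun q => by
      obtain ⟨g, rfl⟩ := QuotientGroup.mk_surjective q
      show MulAut.conjNormal g zY * MulAut.conjNormal g zY = zY * zY
      rw [← map_mul, hsqY g]
    simp only [this, Finset.prod_const, Finset.card_univ, hn, mul_inv_cancel]
  have htZ : (t : X) ∈ Z := by
    refine ⟨hYS t.2, Subgroup.mem_centralizer_iff.2 fun s hs => ?_⟩
    have h1 : Commute s z := Subgroup.mem_centralizer_iff.1 hz.2 s hs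
    have h2 : Commute s (N : X) := hNc s
    exact (h1.pow_right n).mul_right h2.inv_right
  have htc := hinv _ htZ (congrArg Subtype.val ht2)
  intro x
  have hzn : Commute x (z ^ n) := by
    have e : z ^ n = (t : X) * (N : X) := by
      show z ^ n = z ^ n * (N : X)⁻¹ * (N : X)
      rw [inv_mul_cancel_right]
    rw [e]
    exact (show Commute x (t : X) from htc x).mul_right (hNc x)
  obtain ⟨j, hj⟩ := Nat.odd_iff.2 (Nat.two_dvd_ne_zero.1 hodd)
  have h2 : Commute x ((z * z) ^ j) := (show Commute x (z * z) from hsq x).pow_right j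
  have e : z = ((z * z) ^ j)⁻¹ * z ^ n := by
    rw [hj, pow_succ, pow_mul, pow_two, inv_mul_cancel_left]
  rw [e]
  exact h2.inv_right.mul_right hzn

/-- **Generation of constrained groups.** -/
theorem constrained_generation (n : ℕ) : ∀ (X : Type u) [Group X] [Finite X], Nat.card X < n →
    centralizer (Cfsg.pCore 2 X : Set X) ≤ Cfsg.pCore 2 X →
    ¬ Cfsg.Involves (Equiv.Perm (Fin 4)) X → ∀ S : Sylow 2 X,
      normalizer (((S : Subgroup X) ⊓ centralizer ((S : Subgroup X) : Set X) : Subgroup X) : Set X) ⊔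
        normalizer (Cfsg.thompsonSubgroupOf 2 (S : Subgroup X) : Set X) = ⊤ := by
  classical
  induction n with
  | zero => intro X _ _ h; exact absurd h (Nat.not_lt_zero _)
  | succ n ih =>
  intro X _ _ hn hchar h4 S
  haveI : Fact (Nat.Prime 2) := ⟨Nat.prime_two⟩
  have h3 := H83.not_involves_s3_of_char_two hchar h4
  set Z := (S : Subgroup X) ⊓ centralizer ((S : Subgroup X) : Set X) with hZ
  set Q := Cfsg.pCore 2 X with hQ
  haveI hQn : Q.Normal := H19.pCore_normal 2 X
  have hQS : Q ≤ (S : Subgroup X) := H19.pCore_le_sylow S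
  have hZC : Z ≤ centralizer (Q : Set X) :=
    inf_le_right.trans (centralizer_le (show (Q : Set X) ⊆ (S : Subgroup X) from hQS))
  haveI : (centralizer (Q : Set X)).Normal := Subgroup.normal_centralizer
  set Y := Subgroup.normalClosure (Z : Set X) with hY
  haveI hYn : Y.Normal := Subgroup.normalClosure_normal
  have hYQ : Y ≤ Q := Subgroup.normalClosure_le_normal (hZC.trans hchar)
  have hYC : Y ≤ centralizer (Q : Set X) := Subgroup.normalClosure_le_normal hZC
  haveI hYc : IsMulCommutative Y := le_centralizer_iff_isMulCommutative.1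
    (hYC.trans (centralizer_le (show (Y : Set X) ⊆ Q from hYQ)))
  have hZY : Z ≤ Y := fun z hz => Subgroup.subset_normalClosure hz
  set V := Cfsg.omegaOne 2 Y with hVdef
  have hVea : Cfsg.IsElementaryAbelian 2 V := H34.omegaOne_isElementaryAbelian
  have hVY : V ≤ Y := H34.omegaOne_le Y
  haveI hVn : V.Normal := ⟨fun x hx g => by
    have h := H34.map_omegaOne (p := 2) (MulAut.conj g).toMonoidHom (MulAut.conj g).injective Y
    have hmem : g * x * g⁻¹ ∈ V.map (MulAut.conj g).toMonoidHom := ⟨x, hx, rfl⟩
    rw [hVdef, h] at hmem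
    refine H34.omegaOne_mono ?_ hmem
    rintro _ ⟨z, hz, rfl⟩
    exact hYn.conj_mem z hz g⟩
  haveI hVc : IsMulCommutative V := hVea.1
  have hV2 : ∀ v : V, v * v = 1 := fun v => Subtype.ext (by
    have := hVea.2 v v.2
    rwa [pow_two] at this)
  have hVS : V ≤ (S : Subgroup X) := (hVY.trans hYQ).trans hQS
  let φ : X →* MulAut V := MulAut.conjNormal
  set f := φ.rangeRestrict with hf
  have hfs : Function.Surjective f := φ.rangeRestrict_surjective
  have hfix : ∀ (x : X) (v : V), φ x v = v ↔ x * (v : X) = v * x := fun x v => by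
    rw [Subtype.ext_iff, MulAut.conjNormal_apply, mul_inv_eq_iff_eq_mul]
  have hcardfix : ∀ B : Subgroup X,
      Nat.card (fixedSub φ.range.subtype ((B.map f : Subgroup φ.range) : Set φ.range)) =
        Nat.card (V ⊓ centralizer (B : Set X) : Subgroup X) := by
    intro B
    rw [← Subgroup.card_map_of_injective V.subtype_injective]
    congr 2
    ext v
    constructor
    · rintro ⟨u, hu, rfl⟩
      exact ⟨u.2, Subgroup.mem_centralizer_iff.2 fun b hb => (hfix b u).1 (hu (f b) ⟨b, hb, rfl⟩)⟩
    · rintro ⟨hv, hvc⟩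
      refine ⟨⟨v, hv⟩, ?_, rfl⟩
      rintro _ ⟨b, hb, rfl⟩
      exact (hfix b _).2 (Subgroup.mem_centralizer_iff.1 hvc b hb)
  set X1 := centralizer (Cfsg.omegaOne 2 Z : Set X) with hX1
  have hΩV : Cfsg.omegaOne 2 Z ≤ V := H34.omegaOne_mono hZY
  have hSX1 : (S : Subgroup X) ≤ X1 := Subgroup.le_centralizer_iff.1
    ((H34.omegaOne_le Z).trans inf_le_right)
  have hker : f.ker ≤ X1 := fun x hx => Subgroup.mem_centralizer_iff.2 fun w hw => by
    have : φ x = 1 := congrArg Subtype.val (MonoidHom.mem_ker.1 hx)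
    exact ((hfix x ⟨w, hΩV hw⟩).1 (by rw [this]; rfl)).symm
  have hgenX : (⊤ : Subgroup X) ≤ X1 ⊔ normalizer (Cfsg.thompsonSubgroupOf 2 (S : Subgroup X) : Set X) := by
    have h := generation φ.range.subtype Subtype.coe_injective hV2
      (fun h => h3 (H83.involves_of_surjective_hom f hfs h)) (S.mapSurjective hfs)
    rw [show ((S.mapSurjective hfs : Sylow 2 φ.range) : Subgroup φ.range) =
      (S : Subgroup X).map f from rfl, genBy] at h
    set T := (S : Subgroup X).map f with hT
    set J' := jBest φ.range.subtype T with hJ'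
    intro x _
    have hx : f x ∈ (⊤ : Subgroup φ.range) := Subgroup.mem_top _
    rw [← h, ← Subgroup.mem_comap, ← Subgroup.comap_sup_eq f _ _ hfs] at hx
    refine (sup_le ?_ ?_ : _ ≤ X1 ⊔ normalizer (Cfsg.thompsonSubgroupOf 2 (S : Subgroup X) : Set X)) hx
    · intro p hp
      refine Subgroup.mem_sup_left (Subgroup.mem_centralizer_iff.2 fun w hw => ?_)
      refine ((hfix p ⟨w, hΩV hw⟩).1 (hp _ ?_)).symm
      rintro _ ⟨s, hs, rfl⟩
      exact (hfix s _).2 (Subgroup.mem_centralizer_iff.1 (H34.omegaOne_le Z hw).2 s hs)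
    · refine (comap_normalizer_le f S J' (jBest_le _ _)
        (Subgroup.le_normalizer.trans (normalizer_le_jBest _ _))).trans
        (sup_le (hker.trans le_sup_left) ?_)
      set R := (S : Subgroup X) ⊓ J'.comap f with hR
      have hJR : Cfsg.thompsonSubgroupOf 2 (S : Subgroup X) ≤ R := by
        rw [H34.thompsonSubgroupOf_eq]
        refine sSup_le fun A hA => le_inf hA.1 (Subgroup.map_le_iff_le_comap.1 ?_)
        obtain ⟨hAS, hAea, hmax⟩ := hA
        refine le_jBest ⟨?_, fun B hB => ?_⟩ (Subgroup.map_mono hAS)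
        · rintro _ ⟨a, ha, rfl⟩
          have := hAea.2 a ha
          rw [← map_mul, ← pow_two, this, map_one]
        set B1 := A ⊓ B.comap f with hB1
        have hBB : B1.map f = B := by
          refine le_antisymm ((Subgroup.map_mono inf_le_right).trans (Subgroup.map_comap_le _ _)) ?_
          intro y hy
          obtain ⟨a, ha, rfl⟩ := hB hy
          exact ⟨a, ⟨ha, hy⟩, rfl⟩
        have hkeq : B1 ⊓ f.ker = A ⊓ f.ker := by
          refine le_antisymm (inf_le_inf_right _ inf_le_left)
            (le_inf (fun a ha => ⟨ha.1, ?_⟩) inf_le_right)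
          show f a ∈ B
          rw [MonoidHom.mem_ker.1 ha.2]; exact one_mem _
        set D := V ⊓ centralizer (B1 : Set X) with hD
        set DA := V ⊓ centralizer (A : Set X) with hDA
        have hbd : Nat.card B1 * Nat.card D ≤ Nat.card A * Nat.card DA := by
          refine (H34.card_mul_card_le B1 D).trans (Nat.mul_le_mul ?_ (Subgroup.card_le_of_le ?_))
          · exact hmax _ (sup_le (inf_le_left.trans hAS) (inf_le_left.trans hVS))
              (H34.isElementaryAbelian_sup (H34.isElementaryAbelian_mono hAea inf_le_left)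
                (H34.isElementaryAbelian_mono hVea inf_le_left)
                (Subgroup.le_centralizer_iff.1 inf_le_right))
          · exact fun v hv => ⟨hv.2.1,
              le_centralizer_iff_isMulCommutative.2 hAea.1 hv.1.1⟩
        have h1 := hcardfix B1
        rw [hBB] at h1
        rw [h1, hcardfix A, ← hD, ← hDA]
        rw [← card_map_mul_card_inf_ker f B1, ← card_map_mul_card_inf_ker f A, hBB, hkeq,
          mul_right_comm, mul_right_comm (Nat.card (A.map f))] at hbd
        exact Nat.le_of_mul_le_mul_right hbd Nat.card_pos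
      intro x hx
      refine Subgroup.mem_sup_right ?_
      rw [← H34.thompsonSubgroupOf_eq_of_le hJR inf_le_left]
      exact H34.normalizer_le_normalizer_thompson R hx
  by_cases hX1top : X1 = ⊤
  · have hcent := center_central S Y (hYQ.trans hQS) hZY fun t ht ht2 x => by
      have hx : x ∈ X1 := hX1top ▸ Subgroup.mem_top x
      exact (Subgroup.mem_centralizer_iff.1 hx t (H34.mem_omegaOne ht (by rw [pow_two, ht2]))).symm
    refine top_unique fun x _ => Subgroup.mem_sup_left (mem_normalizer_of_cj ?_)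
    refine le_antisymm ?_ fun z hz => ⟨z, hz, ?_⟩
    · rintro _ ⟨z, hz, rfl⟩
      show x * z * x⁻¹ ∈ Z
      rw [hcent z hz x, mul_inv_cancel_right]; exact hz
    · show x * z * x⁻¹ = z
      rw [hcent z hz x, mul_inv_cancel_right]
  · have hcard : Nat.card X1 < Nat.card X := by
      have := H61.card_lt_of_lt (lt_top_iff_ne_top.2 hX1top)
      rwa [Subgroup.card_top] at this
    haveI hQ1n : (Q.subgroupOf X1).Normal := Subgroup.Normal.comap hQn _
    have hQle : Q.subgroupOf X1 ≤ Cfsg.pCore 2 X1 := H19.le_pCore hQ1n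
      ((H19.pCore_isPGroup (G := X) 2).of_equiv
        (Subgroup.subgroupOfEquivOfLe (hQS.trans hSX1)).symm)
    have hchar1 : centralizer (Cfsg.pCore 2 X1 : Set X1) ≤ Cfsg.pCore 2 X1 := by
      intro y hy
      refine hQle (Subgroup.mem_subgroupOf.2 (hchar (Subgroup.mem_centralizer_iff.2 fun q hq => ?_)))
      exact congrArg Subtype.val (Subgroup.mem_centralizer_iff.1 hy ⟨q, (hQS.trans hSX1) hq⟩
        (hQle (Subgroup.mem_subgroupOf.2 hq)))
    set S1 := S.subtype hSX1 with hS1
    have h := ih X1 (by omega) hchar1 (fun h => h4 (H83.involves_of_subgroup h)) S1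
    have hSm : (S1 : Subgroup X1).map X1.subtype = S := Subgroup.map_subgroupOf_eq_of_le hSX1
    have hmap : ∀ (K : Subgroup X1), (normalizer (K : Set X1)).map X1.subtype ≤
        normalizer ((K.map X1.subtype : Subgroup X) : Set X) := fun K =>
      Subgroup.le_normalizer_map _
    have hZm : ((S1 : Subgroup X1) ⊓ centralizer ((S1 : Subgroup X1) : Set X1)).map X1.subtype = Z := by
      ext z
      constructor
      · rintro ⟨y, hy, rfl⟩
        refine ⟨hy.1, Subgroup.mem_centralizer_iff.2 fun s hs => ?_⟩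
        exact congrArg Subtype.val (Subgroup.mem_centralizer_iff.1 hy.2 ⟨s, hSX1 hs⟩ hs)
      · rintro ⟨hz, hzc⟩
        exact ⟨⟨z, hSX1 hz⟩, ⟨hz, Subgroup.mem_centralizer_iff.2 fun s hs =>
          Subtype.ext (Subgroup.mem_centralizer_iff.1 hzc s hs)⟩, rfl⟩
    have hle : X1 ≤ normalizer (Z : Set X) ⊔
        normalizer (Cfsg.thompsonSubgroupOf 2 (S : Subgroup X) : Set X) := by
      have h1 := congrArg (Subgroup.map X1.subtype) h
      rw [← MonoidHom.range_eq_map, Subgroup.range_subtype, Subgroup.map_sup] at h1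
      rw [← h1]
      refine sup_le_sup ((hmap _).trans (by rw [hZm])) ((hmap _).trans ?_)
      rw [H23.map_thompsonSubgroupOf X1.subtype _ Subtype.coe_injective.injOn, hSm]
    exact top_unique (hgenX.trans (sup_le hle le_sup_right))

end Cfsg.Agent.H69.SFour
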