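import Cfsg.Agent.H50.QuadraticOffender
import Mathlib

/-!
A pair of quadratic offenders whose fixed points span the module: if no element moves a fixed point
of the other one trivially, some element of order 3 is inverted by an involution.
-/

set_option autoImplicit false

namespace Cfsg.Agent.H69.SFour

open Cfsg.Agent.H83 (fixedSub delta delta_apply mem_fixedSub)
open Cfsg.Agent.H50.QuadraticOffender (cj cj_cj cj_one mem_cj fixedSub_cj delta_mul
  card_sup_mul_card_inf)

variable {H V : Type*} [Group H] [CommGroup V]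

/-- The situation of `H = ⟨A, A^g⟩` with `V = W W'` and free action. -/
structure Pair (φ : H →* MulAut V) (A : Subgroup H) (g : H) : Prop where
  sq : ∀ v : V, v * v = 1
  invol : ∀ a ∈ A, a * a = 1
  quad : ∀ a ∈ A, ∀ v : V, delta φ a v ∈ fixedSub φ (A : Set H)
  off : Nat.card V ≤ Nat.card A * Nat.card (fixedSub φ (A : Set H))
  gen : A ⊔ cj A g = ⊤
  span : fixedSub φ (A : Set H) ⊔ fixedSub φ (cj A g : Set H) = ⊤
  nontriv : fixedSub φ (A : Set H) ≠ ⊤
  free : ∀ a ∈ A, ∀ u : V, u ∉ fixedSub φ (A : Set H) →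
    delta φ a u ∈ fixedSub φ (Set.univ : Set H) → a = 1

namespace Pair

variable {φ : H →* MulAut V} {A : Subgroup H} {g : H}

theorem cancel (φ : H →* MulAut V) (g : H) (v : V) : φ g (φ g⁻¹ v) = v := by
  rw [map_inv, MulAut.apply_inv_self]

theorem cancel' (φ : H →* MulAut V) (g : H) (v : V) : φ g⁻¹ (φ g v) = v := by
  rw [map_inv, MulAut.inv_apply_self]

/-- The roles of `A` and `A^g` may be exchanged. -/
theorem swap (s : Pair φ A g) : Pair φ (cj A g) g⁻¹ where
  sq := s.sq
  invol := fun a ha => by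
    obtain ⟨b, hb, rfl⟩ := mem_cj.1 ha
    calc g * b * g⁻¹ * (g * b * g⁻¹) = g * (b * b) * g⁻¹ := by group
      _ = 1 := by rw [s.invol b hb]; group
  quad := fun a ha v => by
    obtain ⟨b, hb, rfl⟩ := mem_cj.1 ha
    rw [fixedSub_cj]
    refine ⟨delta φ b (φ g⁻¹ v), s.quad b hb _, ?_⟩
    show φ g (delta φ b (φ g⁻¹ v)) = _
    rw [delta_apply, delta_apply, map_div, cancel, map_mul, map_mul, MulAut.mul_apply,
      MulAut.mul_apply]
  off := by
    rw [fixedSub_cj, Subgroup.card_map_of_injective (f := (φ g).toMonoidHom) (φ g).injective,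
      Subgroup.card_map_of_injective (f := (MulAut.conj g).toMonoidHom) (MulAut.conj g).injective]
    exact s.off
  gen := by rw [cj_cj, inv_mul_cancel, cj_one, sup_comm]; exact s.gen
  span := by rw [cj_cj, inv_mul_cancel, cj_one, sup_comm]; exact s.span
  nontriv := fun h => s.nontriv (by
    refine top_unique fun v _ => ?_
    have hv : φ g v ∈ fixedSub φ (cj A g : Set H) := h ▸ Subgroup.mem_top _
    rw [fixedSub_cj] at hv
    obtain ⟨w, hw, e⟩ := hv
    exact (φ g).injective e ▸ hw)
  free := fun a ha u hu hfix => by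
    obtain ⟨b, hb, rfl⟩ := mem_cj.1 ha
    have hb1 : b = 1 := by
      refine s.free b hb (φ g⁻¹ u) (fun h => hu ?_) ?_
      · rw [fixedSub_cj]
        exact ⟨_, h, cancel φ g u⟩
      · have e : φ g (delta φ b (φ g⁻¹ u)) = delta φ (g * b * g⁻¹) u := by
          rw [delta_apply, delta_apply, map_div, cancel, map_mul, map_mul, MulAut.mul_apply,
            MulAut.mul_apply]
        intro h _
        have h1 := hfix g⁻¹ trivial
        rw [← e, cancel'] at h1
        have h2 : φ h (φ g (delta φ b (φ g⁻¹ u))) = φ g (delta φ b (φ g⁻¹ u)) := by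
          rw [e]; exact hfix h trivial
        rw [← h1] at h2
        exact h2
    rw [hb1, mul_one, mul_inv_cancel]

/-- The points fixed by `A` and `A^g` are fixed by everything. -/
theorem inf_fixed_eq (s : Pair φ A g) :
    fixedSub φ (A : Set H) ⊓ fixedSub φ (cj A g : Set H) = fixedSub φ (Set.univ : Set H) := by
  refine le_antisymm (fun v hv h _ => ?_)
    (le_inf (fun v hv h _ => hv h trivial) fun v hv h _ => hv h trivial)
  have hle : A ⊔ cj A g ≤ H50.QuadraticOffender.stabMod φ ⊥ bot_le v := by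
    refine sup_le (fun a ha => ?_) (fun a ha => ?_)
    · rw [H50.QuadraticOffender.mem_stabMod, Subgroup.mem_bot, delta_apply, hv.1 a ha, div_self']
    · rw [H50.QuadraticOffender.mem_stabMod, Subgroup.mem_bot, delta_apply, hv.2 a ha, div_self']
  have := hle (s.gen.symm ▸ Subgroup.mem_top h)
  rwa [H50.QuadraticOffender.mem_stabMod, Subgroup.mem_bot, delta_apply, div_eq_one] at this

/-- `W'` is not contained in `W`. -/
theorem exists_moved (s : Pair φ A g) :
    ∃ u ∈ fixedSub φ (cj A g : Set H), u ∉ fixedSub φ (A : Set H) := by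
  by_contra h
  push Not at h
  exact s.nontriv (by rw [← s.span, sup_eq_left.2 h])

variable [Finite H] [Finite V]

omit [Finite H] in
/-- `a ↦ [u, a]` covers `W` modulo `I`. -/
theorem cover (s : Pair φ A g) {u : V} (huW : u ∉ fixedSub φ (A : Set H)) {w : V}
    (hw : w ∈ fixedSub φ (A : Set H)) :
    ∃ a ∈ A, delta φ a u / w ∈ fixedSub φ (Set.univ : Set H) := by
  classical
  set I := fixedSub φ (Set.univ : Set H) with hI
  set W := fixedSub φ (A : Set H) with hW
  set W' := fixedSub φ (cj A g : Set H) with hW'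
  have hcW' : Nat.card W' = Nat.card W := by
    rw [hW', fixedSub_cj, Subgroup.card_map_of_injective (φ g).injective]
  let θ : A →* V ⧸ I := MonoidHom.mk' (fun a => ((delta φ a u : V) : V ⧸ I)) fun a b => by
    show ((delta φ ((a : H) * b) u : V) : V ⧸ I) = _
    rw [delta_mul, s.quad b b.2 u a a.2, QuotientGroup.mk_mul, mul_comm]
  have hkc : Nat.card θ.ker = 1 := by
    rw [Subgroup.card_eq_one, Subgroup.eq_bot_iff_forall]
    intro a ha
    exact Subtype.ext (s.free a a.2 u huW ((QuotientGroup.eq_one_iff _).1 ha))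
  have hAc : Nat.card θ.range = Nat.card A := by
    rw [← θ.ker.index_mul_card, hkc, mul_one, Subgroup.index_ker]
  have hrange : θ.range ≤ W.map (QuotientGroup.mk' I) := by
    rintro _ ⟨a, rfl⟩
    exact ⟨_, s.quad a a.2 u, rfl⟩
  have hWI : Nat.card (W.map (QuotientGroup.mk' I)) * Nat.card I = Nat.card W := by
    have hIW : I ≤ W := fun v hv b _ => hv b trivial
    have e : W.map (QuotientGroup.mk' I) = ((QuotientGroup.mk' I).comp W.subtype).range := by
      rw [MonoidHom.range_comp, W.range_subtype]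
    have e' : ((QuotientGroup.mk' I).comp W.subtype).ker = I.subgroupOf W := by
      rw [← MonoidHom.comap_ker, QuotientGroup.ker_mk']; rfl
    rw [e, ← Subgroup.index_ker, e', mul_comm]
    have h2 := Subgroup.relIndex_mul_relIndex (⊥ : Subgroup V) I W bot_le hIW
    rw [Subgroup.relIndex_bot_left, Subgroup.relIndex_bot_left] at h2
    exact h2
  have hSI : Nat.card V * Nat.card I = Nat.card W * Nat.card W := by
    have := card_sup_mul_card_inf W W'
    rwa [hW, hW', s.span, s.inf_fixed_eq, ← hW, ← hW', hcW', Subgroup.card_top] at this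
  have hge : Nat.card (W.map (QuotientGroup.mk' I)) ≤ Nat.card θ.range := by
    rw [hAc]
    have h1 : Nat.card W * Nat.card W ≤ Nat.card A * Nat.card W * Nat.card I :=
      hSI ▸ Nat.mul_le_mul_right _ s.off
    have h2 : Nat.card W * Nat.card W ≤ (Nat.card A * Nat.card I) * Nat.card W :=
      h1.trans_eq (mul_right_comm _ _ _)
    have h3 := Nat.le_of_mul_le_mul_right h2 Nat.card_pos
    rw [← hWI] at h3
    exact Nat.le_of_mul_le_mul_right h3 Nat.card_pos
  have heq : θ.range = W.map (QuotientGroup.mk' I) := Subgroup.eq_of_le_of_card_ge hrange hge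
  obtain ⟨a, ha⟩ : QuotientGroup.mk' I w ∈ θ.range := heq ▸ ⟨w, hw, rfl⟩
  exact ⟨a, a.2, QuotientGroup.eq_iff_div_mem.1 ha⟩

/-- Some element of order 3 is inverted by an involution. -/
theorem exists_inverted (s : Pair φ A g) :
    ∃ y a : H, y ^ 3 = 1 ∧ y ≠ 1 ∧ a * a = 1 ∧ a * y * a = y⁻¹ := by
  classical
  obtain ⟨u, hu', huW⟩ := s.exists_moved
  obtain ⟨w, hw, hw'⟩ := s.swap.exists_moved
  rw [cj_cj, inv_mul_cancel, cj_one] at hw
  obtain ⟨a, ha, hau⟩ := s.cover huW hw
  set w1 := delta φ a u with hw1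
  have hw1W : w1 ∈ fixedSub φ (A : Set H) := s.quad a ha u
  have hw1' : w1 ∉ fixedSub φ (cj A g : Set H) := by
    intro h
    refine hw' ?_
    have hI' : w1 / w ∈ fixedSub φ (cj A g : Set H) := fun c _ => hau c trivial
    have := Subgroup.div_mem _ h hI'
    rwa [div_div_cancel] at this
  obtain ⟨b, hb, hbw⟩ := s.swap.cover hw1' hu'
  set u1 := delta φ b w1 with hu1
  have hu1' : u1 ∈ fixedSub φ (cj A g : Set H) := s.swap.quad b hb w1
  have hau1 : φ a u1 = u1 * w1 := by
    have h1 : φ a (u1 / u) = u1 / u := hbw a trivial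
    have h2 : φ a u = u * w1 := by rw [hw1, delta_apply, mul_div_cancel]
    rw [map_div, h2, div_eq_iff_eq_mul, div_mul_eq_mul_div, ← mul_assoc, mul_comm u1 u, mul_assoc,
      mul_div_assoc, mul_comm u, div_mul_cancel] at h1
    exact h1
  have hbu1 : φ b u1 = u1 := hu1' b hb
  have haw1 : φ a w1 = w1 := hw1W a ha
  have hbw1 : φ b w1 = w1 * u1 := by rw [hu1, delta_apply, mul_div_cancel]
  set x := a * b with hx
  have hxu : φ x u1 = u1 * w1 := by rw [hx, map_mul, MulAut.mul_apply, hbu1, hau1]
  have hxw : φ x w1 = u1 := by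
    rw [hx, map_mul, MulAut.mul_apply, hbw1, map_mul, haw1, hau1, mul_comm u1, ← mul_assoc, s.sq,
      one_mul]
  have hx2 : φ (x ^ 2) u1 = w1 := by
    rw [pow_two, map_mul, MulAut.mul_apply, hxu, map_mul, hxu, hxw, mul_comm u1, mul_assoc, s.sq,
      mul_one]
  have hx3 : φ (x ^ 3) u1 = u1 := by
    rw [pow_succ', map_mul, MulAut.mul_apply, hx2, hxw]
  have hne1 : φ x u1 ≠ u1 := fun h => hw1' (by
    rw [hxu, mul_eq_left] at h
    rw [h]; exact one_mem _)
  have hne2 : φ (x ^ 2) u1 ≠ u1 := fun h => hw1' (by rw [hx2] at h; rw [h]; exact hu1')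
  have hdvd : 3 ∣ orderOf x := by
    have key : ∀ q r : ℕ, φ (x ^ (3 * q + r)) u1 = φ (x ^ r) u1 := by
      intro q r
      induction q with
      | zero => simp
      | succ q ih =>
        rw [show 3 * (q + 1) + r = (3 * q + r) + 3 by ring, pow_add, map_mul, MulAut.mul_apply, hx3,
          ih]
    have h1 := key (orderOf x / 3) (orderOf x % 3)
    rw [Nat.div_add_mod, pow_orderOf_eq_one, map_one, MulAut.one_apply] at h1
    have := Nat.mod_lt (orderOf x) (show 0 < 3 by norm_num)
    rcases h : orderOf x % 3 with _ | _ | _ | k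
    · exact Nat.dvd_of_mod_eq_zero h
    · rw [h, pow_one] at h1; exact absurd h1.symm hne1
    · rw [h] at h1; exact absurd h1.symm hne2
    · omega
  obtain ⟨k, hk⟩ := hdvd
  have hinv : a * x * a = x⁻¹ := by
    have hb2 : b⁻¹ = b := inv_eq_of_mul_eq_one_right (s.swap.invol b hb)
    have ha2 : a⁻¹ = a := inv_eq_of_mul_eq_one_right (s.invol a ha)
    rw [hx, mul_inv_rev, hb2, ha2, ← mul_assoc, s.invol a ha, one_mul]
  refine ⟨x ^ k, a, by rw [← pow_mul, mul_comm, ← hk, pow_orderOf_eq_one], fun h => ?_,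
    s.invol a ha, ?_⟩
  · have h1 := orderOf_dvd_of_pow_eq_one h
    have h2 := orderOf_pos x
    have h3 := Nat.le_of_dvd (by omega) h1
    omega
  · have hc : a * x ^ k * a⁻¹ = (a * x * a⁻¹) ^ k := conj_pow.symm
    rw [inv_eq_of_mul_eq_one_right (s.invol a ha)] at hc
    rw [hc, hinv, inv_pow]

end Pair

end Cfsg.Agent.H69.SFour
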