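import Cfsg.Agent.H69.SFour.Best
import Cfsg.Agent.H69.SFour.Pair
import Cfsg.Agent.H61.Sect
import Cfsg.Agent.H83.Involves
import Mathlib

/-!
An `S₃`-free group acting faithfully on an elementary abelian 2-group is generated by the stabilizer
of the fixed points of a Sylow 2-subgroup `T` and the normalizer of the subgroup generated by the best
offenders in `T`.

In a minimal counterexample the subgroup `L` they generate is the only maximal subgroup containing `T`,
and a nontrivial best offender lies in only one conjugate of `L`. Hence a minimal best offender `A` and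
`A^g`, `g ∉ L`, act freely on each other's fixed points, and some element of order 3 is inverted.
-/

set_option autoImplicit false
set_option linter.style.haveILetI false

namespace Cfsg.Agent.H69.SFour

open Cfsg.Agent.H83 (fixedSub delta delta_apply mem_fixedSub)
open Cfsg.Agent.H61 (cj cj_cj cj_mono card_cj cj_eq_self mem_normalizer_of_cj mem_cj)
open Cfsg.Agent.H23 (IsSylowIn)

universe u

variable {H V : Type u} [Group H] [CommGroup V]

/-- A counterexample of least order. -/
structure Crit (φ : H →* MulAut V) (T : Sylow 2 H) : Prop where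
  inj : Function.Injective φ
  sq : ∀ v : V, v * v = 1
  s3 : ¬ Cfsg.Involves (Equiv.Perm (Fin 3)) H
  ne : genBy φ (T : Subgroup H) ≠ ⊤
  span : (⨆ h : H, (fixedSub φ ((T : Subgroup H) : Set H)).map (φ h).toMonoidHom) = ⊤
  small : ∀ (P T₀ : Subgroup H), P ≠ ⊤ → IsSylowIn 2 T₀ P →
    P ≤ stabSub φ (fixedSub φ (T₀ : Set H)) ⊔ (P ⊓ Subgroup.normalizer (jBest φ T₀ : Set H))

theorem cj_ne_top [Finite H] {P : Subgroup H} (hP : P ≠ ⊤) (m : H) : cj m P ≠ ⊤ := fun e =>
  hP (Subgroup.eq_top_of_card_eq P (by rw [← card_cj m P, e, Subgroup.card_top]))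

theorem le_of_cj_le {P L : Subgroup H} {m : H} (hm : m ∈ L) (h : cj m P ≤ L) : P ≤ L := fun x hx => by
  have h1 := mul_mem (mul_mem (inv_mem hm) (h (H61.conj_mem_cj (g := m) hx))) hm
  simpa [mul_assoc] using h1

namespace Crit

variable {φ : H →* MulAut V} {T : Sylow 2 H}

theorem le_gen (φ : H →* MulAut V) (T : Sylow 2 H) :
    (T : Subgroup H) ≤ genBy φ (T : Subgroup H) :=
  (le_stabSub_fixed φ _).trans le_sup_left

theorem stab_le_gen {T₀ : Subgroup H} (h : T₀ ≤ (T : Subgroup H)) :
    stabSub φ (fixedSub φ (T₀ : Set H)) ≤ genBy φ (T : Subgroup H) :=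
  (stabSub_antitone φ (fun _ hv t ht => hv t (h ht) :
    fixedSub φ ((T : Subgroup H) : Set H) ≤ fixedSub φ (T₀ : Set H))).trans le_sup_left

variable [Finite H] [Finite V]

omit [Finite V] in
/-- No nontrivial normal 2-subgroup. -/
theorem eq_bot_of_normal (c : Crit φ T) {N : Subgroup H} (hN : N.Normal) (hp : IsPGroup 2 N) :
    N = ⊥ := by
  haveI : Fact (Nat.Prime 2) := ⟨Nat.prime_two⟩
  have hNT : N ≤ (T : Subgroup H) := (H19.le_pCore hN hp).trans (H19.pCore_le_sylow T)
  have htop : (⊤ : Subgroup V) ≤ fixedSub φ (N : Set H) := by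
    rw [← c.span, iSup_le_iff]
    rintro h _ ⟨z, hz, rfl⟩ q hq
    have hq' : h⁻¹ * q * h ∈ N := by simpa using hN.conj_mem q hq h⁻¹
    have e : φ (q * h) z = φ h z := by
      rw [show q * h = h * (h⁻¹ * q * h) by group, map_mul, MulAut.mul_apply, hz _ (hNT hq')]
    rwa [map_mul, MulAut.mul_apply] at e
  refine (Subgroup.eq_bot_iff_forall N).2 fun q hq => c.inj ?_
  rw [map_one]
  exact MulEquiv.ext fun v => htop (Subgroup.mem_top v) q hq

omit [Finite H] [Finite V] in
/-- A positioned proper subgroup with a controlled offender group lies in `L`. -/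
theorem positioned (c : Crit φ T) {P T₀ : Subgroup H} (hP : P ≠ ⊤) (hT₀ : IsSylowIn 2 T₀ P)
    (hle : T₀ ≤ (T : Subgroup H))
    (hclaim : ∀ n : H, jBest φ T₀ ≤ cj n (T : Subgroup H) → n ∈ genBy φ (T : Subgroup H)) :
    P ≤ genBy φ (T : Subgroup H) := by
  refine (c.small P T₀ hP hT₀).trans (sup_le (stab_le_gen hle) fun n hn => hclaim n ?_)
  have h := cj_mono n ((jBest_le φ T₀).trans hle)
  rwa [cj_eq_self hn.2] at h

omit [Finite V] in
/-- A 2-group either enlarges the offender group of `E` in the normalizer of `E` or has that of `E`. -/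
theorem grow {R E : Subgroup H} (hR : IsPGroup 2 R)
    (h : jBest φ (R ⊓ Subgroup.normalizer (E : Set H)) = E) : jBest φ R = E := by
  haveI : Fact (Nat.Prime 2) := ⟨Nat.prime_two⟩
  set R₀ := R ⊓ Subgroup.normalizer (E : Set H) with hR₀
  rcases (inf_le_left : R₀ ≤ R).eq_or_lt with e | hlt
  · rwa [← e]
  · exfalso
    have hle : R ⊓ Subgroup.normalizer (R₀ : Set H) ≤ R₀ :=
      le_inf inf_le_left (inf_le_right.trans (by
        conv_rhs => rw [← h]
        exact normalizer_le_jBest φ R₀))
    exact (H61.card_lt_inf_normalizer hR hlt).not_ge (Subgroup.card_le_of_le hle)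

/-- A group generated by best offenders determines the conjugate of `L`. -/
theorem claim (c : Crit φ T) : ∀ (E : Subgroup H), jBest φ E = E → E ≠ ⊥ →
    E ≤ (T : Subgroup H) → ∀ h : H, E ≤ cj h (T : Subgroup H) → h ∈ genBy φ (T : Subgroup H) := by
  haveI : Fact (Nat.Prime 2) := ⟨Nat.prime_two⟩
  intro E
  induction hd : Nat.card (T : Subgroup H) - Nat.card E using Nat.strong_induction_on
    generalizing E with
  | _ d IH =>
  intro hEj hE0 hET h hEh
  subst hd
  set L := genBy φ (T : Subgroup H) with hL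
  have hEJ : E ≤ jBest φ (T : Subgroup H) := hEj.ge.trans (jBest_mono φ hET)
  have hEJh : E ≤ jBest φ (cj h (T : Subgroup H)) := hEj.ge.trans (jBest_mono φ hEh)
  have hcJ : Nat.card (jBest φ (cj h (T : Subgroup H))) = Nat.card (jBest φ (T : Subgroup H)) := by
    rw [← jBest_cj, card_cj]
  rcases hEJ.eq_or_lt with e | hlt
  · have e' : E = jBest φ (cj h (T : Subgroup H)) :=
      Subgroup.eq_of_le_of_card_ge hEJh (by rw [hcJ, ← e])
    refine Subgroup.mem_sup_right (mem_normalizer_of_cj ?_)
    rw [jBest_cj, ← e', e]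
  have hlt' : E ≠ jBest φ (cj h (T : Subgroup H)) := fun e =>
    (H61.card_lt_of_lt hlt).ne (by rw [← hcJ, ← e])
  set P := Subgroup.normalizer (E : Set H) with hP
  have hPtop : P ≠ ⊤ := fun e =>
    hE0 (c.eq_bot_of_normal (Subgroup.normalizer_eq_top_iff.1 e) (T.2.to_le hET))
  set T₀ := (T : Subgroup H) ⊓ P with hT₀
  set T₀' := cj h (T : Subgroup H) ⊓ P with hT₀'
  have big : ∀ (R : Subgroup H), IsPGroup 2 R → E ≤ R → E ≠ jBest φ R →
      Nat.card E < Nat.card (jBest φ (R ⊓ P)) := by
    intro R hR hER hne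
    refine H61.card_lt_of_lt (lt_of_le_of_ne
      (hEj.ge.trans (jBest_mono φ (le_inf hER Subgroup.le_normalizer))) fun e => hne ?_)
    exact (grow hR e.symm).symm
  have hg0 := big _ T.2 hET hlt.ne
  have hg0' := big _ (T.2.map _) hEh hlt'
  have use_IH : ∀ F : Subgroup H, F ≤ (T : Subgroup H) → Nat.card E < Nat.card (jBest φ F) →
      ∀ k : H, jBest φ F ≤ cj k (T : Subgroup H) → k ∈ L := by
    intro F hF hc k hk
    refine IH _ ?_ (jBest φ F) rfl (jBest_idem φ F) ?_ ((jBest_le φ F).trans hF) k hk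
    · have := Subgroup.card_le_of_le ((jBest_le φ F).trans hF)
      omega
    · intro e
      rw [e, Subgroup.card_bot] at hc
      exact absurd hc (not_lt.2 Nat.card_pos)
  obtain ⟨T₁, hT₁, hle₁⟩ := H23.exists_isSylowIn_ge (p := 2) (inf_le_right : T₀ ≤ P)
    (T.2.to_le inf_le_left)
  obtain ⟨m, -, hm⟩ := H61.exists_cj_le (H61.sylowIn_of_le T le_top) le_top hT₁.2.1
  have hT₁' : T₁ ≤ cj m⁻¹ (T : Subgroup H) := by
    have h1 := cj_mono m⁻¹ hm
    rwa [cj_cj, inv_mul_cancel, H61.cj_one] at h1
  have hmL : m⁻¹ ∈ L :=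
    use_IH T₀ inf_le_left hg0 _ ((jBest_le φ _).trans (hle₁.trans hT₁'))
  obtain ⟨q, hq, hqle⟩ := H61.exists_cj_le hT₁ (inf_le_right : T₀' ≤ P)
    ((T.2.map _).to_le inf_le_left)
  have hmq : m * q * h ∈ L := by
    refine use_IH (cj (m * q) T₀') ?_ ?_ _ ?_
    · rw [← cj_cj]; exact (cj_mono m hqle).trans hm
    · rw [← jBest_cj, card_cj]; exact hg0'
    · refine (jBest_le φ _).trans ?_
      rw [← cj_cj h (m * q)]
      exact cj_mono _ inf_le_left
  have hqL : cj m P ≤ L := by
    refine c.positioned (cj_ne_top hPtop m) (H61.sylowIn_cj hT₁ m) hm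
      (use_IH _ hm ?_)
    rw [← jBest_cj, card_cj]
    exact hg0.trans_le (Subgroup.card_le_of_le (jBest_mono φ hle₁))
  have hqL' : q ∈ L := le_of_cj_le (inv_mem_iff.1 hmL) hqL hq
  have := mul_mem (mul_mem (inv_mem hqL') hmL) hmq
  simpa [mul_assoc] using this

/-- A proper subgroup containing a best offender of `T` lies in `L`. -/
theorem le_gen_of_best (c : Crit φ T) {A P : Subgroup H} (hA : Best φ A) (hA0 : A ≠ ⊥)
    (hAT : A ≤ (T : Subgroup H)) (hP : P ≠ ⊤) (hAP : A ≤ P) : P ≤ genBy φ (T : Subgroup H) := by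
  haveI : Fact (Nat.Prime 2) := ⟨Nat.prime_two⟩
  obtain ⟨T₁, hT₁, hle₁⟩ := H23.exists_isSylowIn_ge (p := 2) hAP hA.isPGroup
  obtain ⟨m, -, hm⟩ := H61.exists_cj_le (H61.sylowIn_of_le T le_top) le_top hT₁.2.1
  have hA' : A ≤ cj m⁻¹ (T : Subgroup H) := by
    have h1 := cj_mono m⁻¹ ((cj_mono m hle₁).trans hm)
    rwa [cj_cj, inv_mul_cancel, H61.cj_one] at h1
  have hmL := c.claim A (jBest_self hA) hA0 hAT m⁻¹ hA'
  refine le_of_cj_le (inv_mem_iff.1 hmL) (c.positioned (cj_ne_top hP m) (H61.sylowIn_cj hT₁ m) hm ?_)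
  intro n hn
  refine c.claim _ (jBest_idem φ _) ?_ ((jBest_le φ _).trans hm) n hn
  intro e
  have h1 := le_jBest (hA.cj m) (cj_mono m hle₁)
  rw [e, le_bot_iff, Subgroup.map_eq_bot_iff_of_injective _ (MulAut.conj m).injective] at h1
  exact hA0 h1

/-- A best offender of `T` lies in only one conjugate of `L`. -/
theorem mem_gen_of_le_cj (c : Crit φ T) {A : Subgroup H} (hA : Best φ A) (hA0 : A ≠ ⊥)
    (hAT : A ≤ (T : Subgroup H)) {g : H} (h : A ≤ cj g (genBy φ (T : Subgroup H))) :
    g ∈ genBy φ (T : Subgroup H) := by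
  haveI : Fact (Nat.Prime 2) := ⟨Nat.prime_two⟩
  obtain ⟨m, hm, hle⟩ := H61.exists_cj_le
    (H61.sylowIn_cj (H61.sylowIn_of_le T (le_gen φ T)) g) h hA.isPGroup
  have h1 := cj_mono m⁻¹ hle
  rw [cj_cj, cj_cj, inv_mul_cancel, H61.cj_one] at h1
  have h2 := c.claim A (jBest_self hA) hA0 hAT _ h1
  obtain ⟨l, hl, rfl⟩ := hm
  simp only [MulEquiv.toMonoidHom_eq_coe, MonoidHom.coe_coe, MulAut.conj_apply, mul_inv_rev,
    inv_inv, mul_assoc, inv_mul_cancel, mul_one] at h2
  simpa [mul_assoc] using mul_mem h2 hl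

/-- `T` meets the core of `L` trivially. -/
theorem eq_one_of_core (c : Crit φ T) {a : H} (haT : a ∈ (T : Subgroup H))
    (ha : ∀ x : H, a ∈ cj x (genBy φ (T : Subgroup H))) : a = 1 := by
  haveI : Fact (Nat.Prime 2) := ⟨Nat.prime_two⟩
  set N := (genBy φ (T : Subgroup H)).normalCore with hN
  haveI : N.Normal := Subgroup.normalCore_normal _
  have haN : a ∈ N := fun b => by
    have := mem_cj.1 (ha b⁻¹)
    rwa [inv_inv] at this
  set R := (T : Subgroup H) ⊓ N with hR
  have hsyl : IsSylowIn 2 R N := H61.sylowIn_inf_normal (H61.sylowIn_of_le T le_top) le_top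
    (Subgroup.normalizer_eq_top_iff.2 ‹N.Normal›).ge
  by_cases hn : Subgroup.normalizer (R : Set H) = ⊤
  · have hbot := c.eq_bot_of_normal (Subgroup.normalizer_eq_top_iff.1 hn) (T.2.to_le inf_le_left)
    exact Subgroup.mem_bot.1 (hbot ▸ Subgroup.mem_inf.2 ⟨haT, haN⟩)
  · exfalso
    have hTn : (T : Subgroup H) ≤ Subgroup.normalizer (R : Set H) := fun t ht =>
      mem_normalizer_of_cj (by rw [H61.cj_inf, cj_eq_self (Subgroup.le_normalizer ht), H61.cj_normal])
    have hle : Subgroup.normalizer (R : Set H) ≤ genBy φ (T : Subgroup H) :=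
      (c.small _ _ hn (H61.sylowIn_of_le T hTn)).trans (sup_le le_sup_left fun x hx =>
        Subgroup.mem_sup_right hx.2)
    refine c.ne (top_unique fun x _ => ?_)
    obtain ⟨m, hm, hmle⟩ := H61.exists_cj_le hsyl (L := cj x R)
      ((cj_mono x inf_le_right).trans (H61.cj_normal x N).le) ((T.2.to_le inf_le_left).map _)
    rw [cj_cj] at hmle
    have h1 := hle (mem_normalizer_of_cj (H61.cj_eq_of_le hmle))
    have h2 := mul_mem (inv_mem (Subgroup.normalCore_le _ hm)) h1
    rwa [inv_mul_cancel_left] at h2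

/-- There is no least counterexample. -/
theorem false (c : Crit φ T) : False := by
  classical
  set L := genBy φ (T : Subgroup H) with hL
  have hJ : jBest φ (T : Subgroup H) ≠ ⊥ := fun e => c.ne (top_unique (by
    rw [genBy, e, Subgroup.normalizer_eq_top (H := (⊥ : Subgroup H))]
    exact le_sup_right))
  obtain ⟨A₁, hA₁, hA₁0⟩ : ∃ A : Subgroup H, (Best φ A ∧ A ≤ (T : Subgroup H)) ∧ A ≠ ⊥ := by
    by_contra h
    push Not at h
    exact hJ (le_bot_iff.1 (sSup_le fun A hA => (h A hA).le))
  obtain ⟨A, ⟨⟨hA, hAT⟩, hA0⟩, hAmin⟩ := Set.Finite.exists_minimal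
    (s := {A : Subgroup H | (Best φ A ∧ A ≤ (T : Subgroup H)) ∧ A ≠ ⊥}) (Set.toFinite _)
    ⟨A₁, hA₁, hA₁0⟩
  have hquad := quadratic_of_minimal φ c.sq hA fun D hD hDb hD0 =>
    le_antisymm hD (hAmin ⟨⟨hDb, hD.trans hAT⟩, hD0⟩ hD)
  obtain ⟨g, hg⟩ : ∃ g, g ∉ L := by
    by_contra h
    push Not at h
    exact c.ne (top_unique fun x _ => h x)
  have hcjP : ∀ (x : H) (P : Subgroup H), P ≠ ⊤ → cj x A ≤ P → P ≤ cj x L := by
    intro x P hP hle
    have h1 := cj_mono x⁻¹ hle
    rw [cj_cj, inv_mul_cancel, H61.cj_one] at h1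
    have h2 := cj_mono x (c.le_gen_of_best hA hA0 hAT (cj_ne_top hP x⁻¹) h1)
    rwa [cj_cj, mul_inv_cancel, H61.cj_one] at h2
  have hgen : A ⊔ cj g A = ⊤ := by
    by_contra h
    exact hg (c.mem_gen_of_le_cj hA hA0 hAT (le_sup_left.trans (hcjP g _ h le_sup_right)))
  set W := fixedSub φ (A : Set H) with hW
  set W' := fixedSub φ (cj g A : Set H) with hW'
  have hcard : ∀ x, Nat.card (fixedSub φ (cj x A : Set H)) = Nat.card W := fun x =>
    card_fixedSub_cj φ A x
  have hspan : W ⊔ W' = ⊤ := by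
    set S := W ⊔ W' with hS
    let St : Subgroup H :=
      { carrier := {h | S.map (φ h).toMonoidHom = S}
        one_mem' := by
          show S.map (φ 1).toMonoidHom = S
          rw [map_one]; exact Subgroup.map_id S
        mul_mem' := fun {p q} hp hq => by
          show S.map (φ (p * q)).toMonoidHom = S
          conv_rhs => rw [← hp, ← hq, Subgroup.map_map]
          rw [map_mul]; rfl
        inv_mem' := fun {p} hp => by
          show S.map (φ p⁻¹).toMonoidHom = S
          conv_lhs => rw [← hp, Subgroup.map_map]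
          convert Subgroup.map_id S using 2
          ext v
          simp }
    have hmove : ∀ a : H, (∀ v, delta φ a v ∈ S) → a ∈ St := by
      intro a ha
      refine Subgroup.eq_of_le_of_card_ge ?_
        (Subgroup.card_map_of_injective (f := (φ a).toMonoidHom) (φ a).injective).ge
      rintro _ ⟨v, hv, rfl⟩
      show φ a v ∈ S
      have := S.mul_mem (ha v) hv
      rwa [delta_apply, div_mul_cancel] at this
    have hle : A ⊔ cj g A ≤ St := by
      refine sup_le (fun a ha => hmove a fun v => Subgroup.mem_sup_left (hquad a ha v)) ?_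
      rintro _ ⟨b, hb, rfl⟩
      refine hmove _ fun v => Subgroup.mem_sup_right ?_
      rw [hW', fixedSub_cj]
      refine ⟨delta φ b (φ g⁻¹ v), hquad b hb _, ?_⟩
      show φ g (delta φ b (φ g⁻¹ v)) = delta φ (g * b * g⁻¹) v
      rw [delta_apply, delta_apply, map_div, Pair.cancel, map_mul, map_mul, MulAut.mul_apply,
        MulAut.mul_apply]
    rw [hgen] at hle
    refine top_unique ?_
    rw [← c.span, iSup_le_iff]
    intro h
    have hZW : fixedSub φ ((T : Subgroup H) : Set H) ≤ W := fun v hv a ha => hv a (hAT ha)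
    calc (fixedSub φ ((T : Subgroup H) : Set H)).map (φ h).toMonoidHom
        ≤ S.map (φ h).toMonoidHom := Subgroup.map_mono (hZW.trans le_sup_left)
      _ = S := hle (Subgroup.mem_top h)
  set I := fixedSub φ (Set.univ : Set H) with hI
  have hinf : W ⊓ W' = I := by
    refine le_antisymm (fun v hv h _ => ?_)
      (le_inf (fun v hv h _ => hv h trivial) fun v hv h _ => hv h trivial)
    have hle : A ⊔ cj g A ≤ H50.QuadraticOffender.stabMod φ ⊥ bot_le v := by
      refine sup_le (fun a ha => ?_) (fun a ha => ?_)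
      · rw [H50.QuadraticOffender.mem_stabMod, Subgroup.mem_bot, delta_apply, hv.1 a ha, div_self']
      · rw [H50.QuadraticOffender.mem_stabMod, Subgroup.mem_bot, delta_apply, hv.2 a ha, div_self']
    have := hle (hgen.symm ▸ Subgroup.mem_top h)
    rwa [H50.QuadraticOffender.mem_stabMod, Subgroup.mem_bot, delta_apply, div_eq_one] at this
  have hVI : Nat.card V * Nat.card I = Nat.card W * Nat.card W := by
    have := H50.QuadraticOffender.card_sup_mul_card_inf W W'
    rwa [hspan, hinf, Subgroup.card_top, hcard g] at this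
  have hnt : W ≠ ⊤ := fun e => hA0 ((Subgroup.eq_bot_iff_forall A).2 fun a ha => c.inj (by
    rw [map_one]
    exact MulEquiv.ext fun v => (e ▸ Subgroup.mem_top v : v ∈ W) a ha))
  have hfree : ∀ a ∈ A, ∀ u : V, u ∉ W → delta φ a u ∈ I → a = 1 := by
    intro a ha u huW hfix
    refine c.eq_one_of_core (hAT ha) fun x => ?_
    set U := I.comap (delta φ a) with hU
    have hWU : W < U := by
      refine lt_of_le_of_ne (fun w hw => ?_) fun e => huW (e ▸ (hfix : u ∈ U))
      show delta φ a w ∈ I
      rw [delta_apply, hw a ha, div_self']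
      exact I.one_mem
    set Wx := fixedSub φ (cj x A : Set H) with hWx
    have h1 := H50.QuadraticOffender.card_sup_mul_card_inf U Wx
    have h2 : Nat.card (U ⊔ Wx : Subgroup V) ≤ Nat.card V := Subgroup.card_le_card_group _
    have h3 : Nat.card W < Nat.card U := H61.card_lt_of_lt hWU
    have hlt : Nat.card I < Nat.card (U ⊓ Wx : Subgroup V) := by
      by_contra hle
      have h4 : Nat.card U * Nat.card W ≤ Nat.card W * Nat.card W := by
        calc Nat.card U * Nat.card W
            = Nat.card (U ⊔ Wx : Subgroup V) * Nat.card (U ⊓ Wx : Subgroup V) := by rw [h1, hcard]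
          _ ≤ Nat.card V * Nat.card I := Nat.mul_le_mul h2 (not_lt.1 hle)
          _ = _ := hVI
      exact absurd (Nat.le_of_mul_le_mul_right h4 Nat.card_pos) (not_le.2 h3)
    obtain ⟨v, ⟨hvU, hvx⟩, hvI⟩ : ∃ v ∈ (U ⊓ Wx : Subgroup V), v ∉ I := by
      by_contra h
      push Not at h
      exact absurd (Subgroup.card_le_of_le h) (not_le.2 hlt)
    set K := H50.QuadraticOffender.stabMod φ I le_rfl v with hK
    have hxK : cj x A ≤ K := fun b hb => by
      rw [H50.QuadraticOffender.mem_stabMod, delta_apply, hvx b hb, div_self']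
      exact I.one_mem
    have hKtop : K ≠ ⊤ := by
      intro e
      have hall : ∀ h, delta φ h v ∈ I := fun h =>
        H50.QuadraticOffender.mem_stabMod.1 (show h ∈ K from e ▸ Subgroup.mem_top h)
      let f : H →* V :=
        { toFun := fun h => delta φ h v
          map_one' := by rw [delta_apply, map_one, MulAut.one_apply, div_self']
          map_mul' := fun p q => by
            show delta φ (p * q) v = _
            rw [H50.QuadraticOffender.delta_mul, hall q p trivial, mul_comm] }
      have hker : ∀ b ∈ A, ∀ y : H, f (y * b * y⁻¹) = f b := fun b _ y => by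
        rw [map_mul, map_mul, map_inv, mul_comm (f y), mul_inv_cancel_right]
      have hA' : ∀ b ∈ A, f b = 1 := fun b hb => by
        rw [← hker b hb x]
        show delta φ _ v = 1
        rw [delta_apply, hvx _ (H61.conj_mem_cj hb), div_self']
      have hfle : A ⊔ cj g A ≤ f.ker := by
        refine sup_le (fun b hb => hA' b hb) ?_
        rintro _ ⟨b, hb, rfl⟩
        show f (g * b * g⁻¹) = 1
        rw [hker b hb g, hA' b hb]
      refine hvI fun h _ => ?_
      have h5 : delta φ h v = 1 := hfle (hgen.symm ▸ Subgroup.mem_top h)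
      rwa [delta_apply, div_eq_one] at h5
    exact hcjP x K hKtop hxK hvU
  have hoff : Nat.card V ≤ Nat.card A * Nat.card W := by
    have h := hA.2 ⊥ bot_le
    have htop : fixedSub φ ((⊥ : Subgroup H) : Set H) = ⊤ := top_unique fun v _ s hs => by
      rw [SetLike.mem_coe, Subgroup.mem_bot] at hs
      rw [hs, map_one, MulAut.one_apply]
    rwa [htop, Subgroup.card_bot, one_mul, Subgroup.card_top] at h
  have s : Pair φ A g := ⟨c.sq, hA.1, hquad, hoff, hgen, hspan, hnt, hfree⟩
  obtain ⟨y, a, hy3, hy1, ha2, hay⟩ := s.exists_inverted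
  exact c.s3 (H83.involves_s3_of_inverted hy3 hy1 (by rwa [inv_eq_of_mul_eq_one_right ha2]))

end Crit

theorem gen_aux (n : ℕ) : ∀ (H V : Type u) [Group H] [CommGroup V] [Finite H] [Finite V]
    (φ : H →* MulAut V), Function.Injective φ → (∀ v : V, v * v = 1) →
    ¬ Cfsg.Involves (Equiv.Perm (Fin 3)) H → Nat.card H + Nat.card V < n →
    ∀ T : Sylow 2 H, genBy φ (T : Subgroup H) = ⊤ := by
  induction n with
  | zero => intro H V _ _ _ _ φ _ _ _ h; exact absurd h (Nat.not_lt_zero _)
  | succ n ih =>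
  intro H V _ _ _ _ φ hφ hV h3 hn T
  haveI : Fact (Nat.Prime 2) := ⟨Nat.prime_two⟩
  by_contra hne
  have hrec : ∀ (P : Subgroup H) (U : Subgroup V) (hU : ∀ p ∈ P, ∀ u ∈ U, φ p u ∈ U),
      Nat.card P + Nat.card U < Nat.card H + Nat.card V →
      ∀ S : Sylow 2 (restrictHom φ P U hU).range,
        genBy (restrictHom φ P U hU).range.subtype
          (S : Subgroup (restrictHom φ P U hU).range) = ⊤ := by
    intro P U hU hlt S
    refine ih _ _ _ Subtype.coe_injective (fun u => Subtype.ext (hV u)) (fun h => h3 ?_) ?_ S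
    · exact H83.involves_of_subgroup (H83.involves_of_surjective_hom _
        (restrictHom φ P U hU).rangeRestrict_surjective h)
    · have := Nat.card_le_card_of_surjective _ (restrictHom φ P U hU).rangeRestrict_surjective
      omega
  set Z := fixedSub φ ((T : Subgroup H) : Set H) with hZ
  set U : Subgroup V := ⨆ h : H, Z.map (φ h).toMonoidHom with hUdef
  have hUinv : ∀ p ∈ (⊤ : Subgroup H), ∀ u ∈ U, φ p u ∈ U := by
    intro p _ u hu
    have hmap : U.map (φ p).toMonoidHom ≤ U := by
      rw [hUdef, Subgroup.map_iSup]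
      refine iSup_le fun h => ?_
      rw [Subgroup.map_map]
      refine le_trans (le_of_eq ?_) (le_iSup _ (p * h))
      rw [map_mul]; rfl
    exact hmap ⟨u, hu, rfl⟩
  by_cases hUtop : U = ⊤
  · refine Crit.false (φ := φ) (T := T) ⟨hφ, hV, h3, hne, hUtop, fun P T₀ hP hT₀ => ?_⟩
    have h := transfer φ P ⊤ (fun _ _ _ _ => Subgroup.mem_top _) T₀ hT₀ (hrec P ⊤ _ (by
      have := H61.card_lt_of_lt (lt_top_iff_ne_top.2 hP)
      rw [Subgroup.card_top] at this ⊢
      omega))
    rwa [top_inf_eq] at h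
  · refine hne (top_unique ?_)
    have h := transfer φ ⊤ U hUinv (T : Subgroup H) (H61.sylowIn_of_le T le_top) (hrec ⊤ U hUinv (by
      have := H61.card_lt_of_lt (lt_top_iff_ne_top.2 hUtop)
      rw [Subgroup.card_top] at this ⊢
      omega))
    have hZU : Z ≤ U := by
      refine le_trans (le_of_eq ?_) (le_iSup _ (1 : H))
      rw [map_one]; exact (Subgroup.map_id Z).symm
    rw [← hZ, inf_eq_right.2 hZU, top_inf_eq] at h
    exact h

/-- **Generation.** An `S₃`-free group acting faithfully on an elementary abelian 2-group is generated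
by the stabilizer of `C_V(T)` and the normalizer of the best offenders of `T`. -/
theorem generation {H V : Type u} [Group H] [CommGroup V] [Finite H] [Finite V]
    (φ : H →* MulAut V) (hφ : Function.Injective φ) (hV : ∀ v : V, v * v = 1)
    (h3 : ¬ Cfsg.Involves (Equiv.Perm (Fin 3)) H) (T : Sylow 2 H) :
    genBy φ (T : Subgroup H) = ⊤ :=
  gen_aux _ H V φ hφ hV h3 (Nat.lt_succ_self _) T

end Cfsg.Agent.H69.SFour
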